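import Cfsg.Agent.Lib.Helper11.Y532a.Top

set_option autoImplicit false
set_option maxRecDepth 100000

namespace Cfsg.Agent.Lib.Helper11.Y532a

set_option maxHeartbeats 0
theorem b0 : allR (guardB 59 (blk fc sc rt.get INV isH)) 6 0 = true := by decide +kernel
theorem c0 : allR (guardB 1 (cblk fc nc cc 15104 1 878694100496718043517683302282418331810487718418343092402491322775749527474899974671687634004666183037093927858109549828751614463963730408009475621262727315456 gens)) 0 0 = true := by decide +kernel

end Cfsg.Agent.Lib.Helper11.Y532a
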